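import Mathlib
import Cfsg.Agent.H24.Extraspecial

/-!
The real monomial representation of the extraspecial 2-group of plus type attached to a quadratic form
over the field with two elements, and its normalizer in the orthogonal group.
-/

set_option autoImplicit false
set_option linter.all false

namespace Cfsg.Agent.H75

variable {U : Type*} [AddCommGroup U] [Module (ZMod 2) U]

/-- The sign of an element of the field with two elements. -/
def sgn2 (s : ZMod 2) : ℝ := if s = 0 then 1 else -1

theorem sgn2_add (s t : ZMod 2) : sgn2 (s + t) = sgn2 s * sgn2 t := by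
  rcases (show ∀ a : ZMod 2, a = 0 ∨ a = 1 by decide) s with rfl | rfl <;>
    rcases (show ∀ a : ZMod 2, a = 0 ∨ a = 1 by decide) t with rfl | rfl <;>
    first
      | (simp [sgn2]; done)
      | (rw [show (1 : ZMod 2) + 1 = 0 by decide]; simp [sgn2])

theorem sgn2_zero : sgn2 0 = 1 := by simp [sgn2]

theorem sgn2_mul_self (s : ZMod 2) : sgn2 s * sgn2 s = 1 := by
  rw [← sgn2_add, CharTwo.add_self_eq_zero, sgn2_zero]

theorem sgn2_ne_zero (s : ZMod 2) : sgn2 s ≠ 0 := fun h => by
  have := sgn2_mul_self s; rw [h, mul_zero] at this; exact zero_ne_one this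

theorem sgn2_eq_one {s : ZMod 2} (h : sgn2 s = 1) : s = 0 := by
  by_contra hs; simp [sgn2, hs] at h; norm_num at h

/-- Over the field with two elements every alternating form is a polar form. -/
theorem exists_bilin_add_flip [Module.Finite (ZMod 2) U] (γ : U →ₗ[ZMod 2] U →ₗ[ZMod 2] ZMod 2)
    (hγ : ∀ u, γ u u = 0) : ∃ δ : U →ₗ[ZMod 2] U →ₗ[ZMod 2] ZMod 2, ∀ u v, δ u v + δ v u = γ u v := by
  let b := Module.finBasis (ZMod 2) U
  have hsymm : ∀ u v, γ v u = γ u v := fun u v => by
    have h := hγ (u + v)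
    simp only [map_add, LinearMap.add_apply, hγ] at h
    refine CharTwo.add_eq_zero.mp ?_
    linear_combination h
  let δ : U →ₗ[ZMod 2] U →ₗ[ZMod 2] ZMod 2 :=
    b.constr (ZMod 2) fun i => b.constr (ZMod 2) fun j => if i < j then γ (b i) (b j) else 0
  refine ⟨δ, fun u v => ?_⟩
  have : δ + δ.flip = γ := by
    refine b.ext fun i => b.ext fun j => ?_
    simp only [δ, LinearMap.add_apply, LinearMap.flip_apply, Module.Basis.constr_basis]
    rcases lt_trichotomy i j with h | rfl | h
    · rw [if_pos h, if_neg h.le.not_gt, add_zero]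
    · simp [hγ]
    · rw [if_pos h, if_neg h.le.not_gt, zero_add, hsymm]
  exact LinearMap.congr_fun₂ this u v

/-- The data of the construction. -/
structure CliffData (U : Type*) [AddCommGroup U] [Module (ZMod 2) U] (n : ℕ) where
  q : QuadraticForm (ZMod 2) U
  π : U →ₗ[ZMod 2] (Fin n → ZMod 2)
  σ : (Fin n → ZMod 2) →ₗ[ZMod 2] U
  hσ : ∀ c, π (σ c) = c
  hW : ∀ u, π u = 0 → q u = 0
  hnd : ∀ u, (∀ v, QuadraticMap.polar q u v = 0) → u = 0
  hdim : Module.finrank (ZMod 2) U = 2 * n

namespace CliffData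

variable {n : ℕ} (D : CliffData U n)

/-- The cocycle. -/
noncomputable def β : U →ₗ[ZMod 2] (Fin n → ZMod 2) →ₗ[ZMod 2] ZMod 2 :=
  ((D.q.comp D.σ).toBilin (Pi.basisFun (ZMod 2) (Fin n))).comp D.π +
    ((QuadraticMap.polarBilin D.q).comp (LinearMap.id - D.σ.comp D.π)).compl₂ D.σ

theorem β_apply (u : U) (x : Fin n → ZMod 2) :
    D.β u x = (D.q.comp D.σ).toBilin (Pi.basisFun (ZMod 2) (Fin n)) (D.π u) x +
      QuadraticMap.polar D.q (u - D.σ (D.π u)) (D.σ x) := rfl

theorem β_self (u : U) : D.β u (D.π u) = D.q u := by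
  rw [D.β_apply]
  have h1 : (D.q.comp D.σ).toBilin (Pi.basisFun (ZMod 2) (Fin n)) (D.π u) (D.π u) = D.q (D.σ (D.π u)) := by
    conv_rhs => rw [← QuadraticMap.comp_apply, ← QuadraticMap.toQuadraticMap_toBilin (D.q.comp D.σ) (Pi.basisFun (ZMod 2) (Fin n))]
    rfl
  have h2 : D.q (u - D.σ (D.π u)) = 0 := D.hW _ (by rw [map_sub, D.hσ, sub_self])
  rw [h1, QuadraticMap.polar, sub_add_cancel, h2, sub_zero]
  ring

theorem β_polar (u v : U) : D.β u (D.π v) + D.β v (D.π u) = QuadraticMap.polar D.q u v := by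
  have h := D.β_self (u + v)
  simp only [map_add, LinearMap.add_apply, D.β_self] at h
  rw [QuadraticMap.polar]
  linear_combination h

theorem exists_functional (ψ : (Fin n → ZMod 2) →ₗ[ZMod 2] ZMod 2) :
    ∃ w, D.π w = 0 ∧ ∀ x, D.β w x = ψ x := by
  have hW' : ∀ {w}, D.π w = 0 → ∀ x, D.β w x = QuadraticMap.polar D.q w (D.σ x) := by
    intro w hw x
    rw [D.β_apply, hw, map_zero, LinearMap.zero_apply, zero_add, map_zero, sub_zero]
  let f : LinearMap.ker D.π →ₗ[ZMod 2] ((Fin n → ZMod 2) →ₗ[ZMod 2] ZMod 2) := D.β.comp (LinearMap.ker D.π).subtype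
  have hinj : Function.Injective f := by
    rw [← LinearMap.ker_eq_bot, LinearMap.ker_eq_bot']
    rintro ⟨w, hw⟩ h
    refine Subtype.ext (D.hnd w fun v => ?_)
    have hw' : D.π w = 0 := hw
    have h1 : QuadraticMap.polar D.q w (D.σ (D.π v)) = 0 := by
      rw [← hW' hw']; exact LinearMap.congr_fun h _
    have h2 : QuadraticMap.polar D.q w (v - D.σ (D.π v)) = 0 := by
      rw [QuadraticMap.polar, D.hW (w + (v - D.σ (D.π v))) (by simp [D.hσ, hw']),
        D.hW (v - D.σ (D.π v)) (by simp [D.hσ]), D.hW w hw', sub_zero, sub_zero]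
    have h3 := QuadraticMap.polar_add_right D.q w (v - D.σ (D.π v)) (D.σ (D.π v))
    rwa [sub_add_cancel, h1, h2, add_zero] at h3
  haveI : Module.Finite (ZMod 2) U ∨ n = 0 := by
    by_cases hn : n = 0
    · exact Or.inr hn
    · exact Or.inl (Module.finite_of_finrank_pos (by rw [D.hdim]; omega))
  rcases this with hf | hn
  · have hrn : Module.finrank (ZMod 2) (LinearMap.ker D.π) = n := by
      have h := LinearMap.finrank_range_add_finrank_ker D.π
      rw [LinearMap.range_eq_top.mpr (fun c => ⟨D.σ c, D.hσ c⟩), finrank_top, Module.finrank_fin_fun, D.hdim] at h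
      omega
    obtain ⟨⟨w, hw⟩, hwψ⟩ := (LinearMap.injective_iff_surjective_of_finrank_eq_finrank
      (by rw [hrn, Module.finrank_linearMap_self, Module.finrank_fin_fun])).mp hinj ψ
    exact ⟨w, hw, fun x => LinearMap.congr_fun hwψ x⟩
  · subst hn
    exact ⟨0, map_zero _, fun x => by rw [Subsingleton.elim x 0, map_zero, map_zero]⟩

/-- The monomial matrices. -/
noncomputable def M (u : U) (s : ZMod 2) : Matrix (Fin n → ZMod 2) (Fin n → ZMod 2) ℝ :=
  fun y x => if y = x + D.π u then sgn2 (s + D.β u x) else 0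

theorem M_apply (u : U) (s : ZMod 2) (y x : Fin n → ZMod 2) :
    D.M u s y x = if y = x + D.π u then sgn2 (s + D.β u x) else 0 := rfl

theorem M_mul (u v : U) (s t : ZMod 2) :
    D.M u s * D.M v t = D.M (u + v) (s + t + D.β u (D.π v)) := by
  ext y x
  rw [Matrix.mul_apply, Finset.sum_eq_single (x + D.π v)]
  · rw [D.M_apply, D.M_apply, if_pos rfl, D.M_apply]
    simp only [map_add, LinearMap.add_apply]
    have e : x + D.π v + D.π u = x + (D.π u + D.π v) := by abel
    rw [e]
    split_ifs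
    · rw [← sgn2_add]; congr 1; abel
    · rw [zero_mul]
  · intro z _ hz; rw [D.M_apply v, if_neg hz, mul_zero]
  · simp

theorem M_zero : D.M 0 0 = 1 := by
  ext y x; simp [D.M_apply, Matrix.one_apply, sgn2_zero]

theorem M_sign (u : U) (s c : ZMod 2) : D.M u (c + s) = sgn2 c • D.M u s := by
  ext y x
  simp only [Matrix.smul_apply, D.M_apply, smul_eq_mul]
  split_ifs <;> simp [add_assoc, sgn2_add, mul_assoc]

theorem M_transpose (u : U) (s : ZMod 2) : (D.M u s).transpose = D.M u (s + D.q u) := by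
  ext y x
  rw [Matrix.transpose_apply, D.M_apply, D.M_apply]
  have h2 : ∀ a : Fin n → ZMod 2, a + D.π u + D.π u = a := fun a => by
    rw [add_assoc, ← two_smul (ZMod 2) (D.π u), show (2 : ZMod 2) = 0 by decide, zero_smul, add_zero]
  by_cases h : x = y + D.π u
  · rw [if_pos h, if_pos (by rw [h, h2]), h, map_add, D.β_self]
    congr 1
    linear_combination (CharTwo.add_self_eq_zero (D.q u)).symm
  · rw [if_neg h, if_neg fun h' => h (by rw [h', h2])]

theorem M_mul_transpose (u : U) (s : ZMod 2) : D.M u s * (D.M u s).transpose = 1 := by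
  rw [D.M_transpose, D.M_mul, D.β_self, ← two_smul (ZMod 2) u, show (2 : ZMod 2) = 0 by decide, zero_smul,
    ← D.M_zero]
  congr 1
  linear_combination (CharTwo.add_self_eq_zero s) + CharTwo.add_self_eq_zero (D.q u)

theorem transpose_M_mul (u : U) (s : ZMod 2) : (D.M u s).transpose * D.M u s = 1 :=
  mul_eq_one_comm.mp (D.M_mul_transpose u s)

theorem trace_zero (s : ZMod 2) : (D.M 0 s).trace = 2 ^ n * sgn2 s := by
  simp [Matrix.trace, D.M_apply, Finset.card_univ]

theorem trace_ne (u : U) (s : ZMod 2) (hu : u ≠ 0) : (D.M u s).trace = 0 := by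
  by_cases hπ : D.π u = 0
  · obtain ⟨x₀, hx₀⟩ : ∃ x₀, D.β u x₀ = 1 := by
      by_contra hcon
      push Not at hcon
      have h0 : ∀ x, D.β u x = 0 := fun x =>
        ((show ∀ a : ZMod 2, a = 0 ∨ a = 1 by decide) (D.β u x)).resolve_right (hcon x)
      refine hu (D.hnd u fun v => ?_)
      rw [← D.β_polar, h0, zero_add, hπ, map_zero]
    have h : (D.M u s).trace = -(D.M u s).trace := by
      simp only [Matrix.trace, Matrix.diag, D.M_apply, hπ, add_zero, if_true]
      rw [← Finset.sum_neg_distrib]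
      refine Fintype.sum_equiv (Equiv.addRight x₀) _ _ fun x => ?_
      have h1 : sgn2 1 = -1 := by simp [sgn2]
      rw [Equiv.coe_addRight, map_add, hx₀, ← add_assoc, sgn2_add _ (1 : ZMod 2), h1]
      ring
    linarith
  · simp [Matrix.trace, Matrix.diag, D.M_apply, hπ]

theorem M_inj {u v : U} {s t : ZMod 2} (h : D.M u s = D.M v t) : u = v ∧ s = t := by
  have h1 := D.M_mul_transpose u s
  conv_lhs at h1 => arg 2; rw [h]
  rw [D.M_transpose, D.M_mul] at h1
  by_cases hd : u + v = 0
  · have huv : u = v := by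
      rw [← sub_eq_zero, sub_eq_add_neg, show -v = (-1 : ZMod 2) • v by rw [neg_smul, one_smul],
        show (-1 : ZMod 2) = 1 by decide, one_smul, hd]
    subst huv
    rw [hd, ← D.M_zero] at h1
    have h2 := congrArg Matrix.trace h1
    rw [D.trace_zero, D.trace_zero, sgn2_zero, mul_one, mul_eq_left₀ (by positivity)] at h2
    have h3 := sgn2_eq_one h2
    rw [D.β_self] at h3
    exact ⟨rfl, CharTwo.add_eq_zero.mp (by linear_combination h3 - CharTwo.add_self_eq_zero (D.q u))⟩
  · have h2 := congrArg Matrix.trace h1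
    rw [D.trace_ne _ _ hd, Matrix.trace_one] at h2
    exact absurd h2.symm (by simp [Fintype.card_ne_zero])

theorem M_comm (u v : U) (s t : ZMod 2) :
    D.M u s * D.M v t = sgn2 (QuadraticMap.polar D.q u v) • (D.M v t * D.M u s) := by
  rw [D.M_mul, D.M_mul, add_comm v u, ← D.M_sign, ← D.β_polar]
  congr 1
  linear_combination -CharTwo.add_self_eq_zero (D.β v (D.π u))

theorem schur {X : Matrix (Fin n → ZMod 2) (Fin n → ZMod 2) ℝ} (h : ∀ u, X * D.M u 0 = D.M u 0 * X) :
    ∃ c : ℝ, X = c • 1 := by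
  have hoff : ∀ y x, y ≠ x → X y x = 0 := by
    intro y x hyx
    obtain ⟨i, hi⟩ := Function.ne_iff.mp hyx
    obtain ⟨w, hw, hwψ⟩ := D.exists_functional (LinearMap.proj i)
    have h1 := congrFun (congrFun (h w) y) x
    rw [Matrix.mul_apply, Matrix.mul_apply, Finset.sum_eq_single x, Finset.sum_eq_single y] at h1
    · simp only [D.M_apply, hw, add_zero, zero_add, if_true, hwψ, LinearMap.proj_apply] at h1
      by_contra hX
      refine hi (CharTwo.add_eq_zero.mp (sgn2_eq_one ?_))
      have h2 : sgn2 (x i) = sgn2 (y i) := mul_left_cancel₀ hX (by rw [h1]; ring)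
      rw [sgn2_add, ← h2, sgn2_mul_self]
    · intro z _ hz; rw [D.M_apply, if_neg (by rw [hw, add_zero]; exact hz.symm), zero_mul]
    · simp
    · intro z _ hz; rw [D.M_apply, if_neg (by rw [hw, add_zero]; exact hz), mul_zero]
    · simp
  refine ⟨X 0 0, ?_⟩
  have hd : ∀ c, X c c = X 0 0 := by
    intro c
    have h1 := congrFun (congrFun (h (D.σ c)) c) 0
    rw [Matrix.mul_apply, Matrix.mul_apply, Finset.sum_eq_single c, Finset.sum_eq_single 0] at h1
    · simp only [D.M_apply, D.hσ, zero_add, if_true] at h1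
      exact mul_right_cancel₀ (sgn2_ne_zero _) (h1.trans (mul_comm _ _))
    · intro z _ hz; rw [hoff _ _ hz, mul_zero]
    · simp
    · intro z _ hz; rw [D.M_apply, if_neg (by rw [D.hσ, zero_add]; exact hz), mul_zero]
    · simp
  ext y x
  by_cases hyx : y = x
  · subst hyx; simp [hd y]
  · simp [hoff y x hyx, Matrix.one_apply_ne hyx]

variable [Module.Finite (ZMod 2) U]

/-- Every isometry is induced by an orthogonal matrix. -/
theorem exists_intertwiner (g : U →ₗ[ZMod 2] U) (hg : ∀ u, D.q (g u) = D.q u) :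
    ∃ T : Matrix (Fin n → ZMod 2) (Fin n → ZMod 2) ℝ, T * T.transpose = 1 ∧
      ∀ u, ∃ s, T * D.M u 0 * T.transpose = D.M (g u) s := by
  classical
  haveI : Finite U := Module.finite_of_finite (ZMod 2)
  haveI := Fintype.ofFinite U
  let γ : U →ₗ[ZMod 2] U →ₗ[ZMod 2] ZMod 2 := (D.β.comp g).compl₂ (D.π.comp g) - D.β.compl₂ D.π
  obtain ⟨δ, hδ⟩ := exists_bilin_add_flip γ fun u => by
    show D.β (g u) (D.π (g u)) - D.β u (D.π u) = 0
    rw [D.β_self, D.β_self, hg, sub_self]
  let M' : U → Matrix (Fin n → ZMod 2) (Fin n → ZMod 2) ℝ := fun u => D.M (g u) (δ u u)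
  have hM' : ∀ v u, M' v * M' u = sgn2 (D.β v (D.π u)) • M' (v + u) := by
    intro v u
    simp only [M']
    rw [D.M_mul, ← D.M_sign, map_add g]
    congr 1
    have h := hδ v u
    simp only [γ, LinearMap.sub_apply, LinearMap.compl₂_apply, LinearMap.comp_apply] at h
    simp only [map_add, LinearMap.add_apply]
    linear_combination -h
  let T : Matrix (Fin n → ZMod 2) (Fin n → ZMod 2) ℝ → Matrix (Fin n → ZMod 2) (Fin n → ZMod 2) ℝ :=
    fun X => ∑ u : U, M' u * X * (D.M u 0).transpose
  have hT : ∀ X v, M' v * T X = T X * D.M v 0 := by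
    intro X v
    simp only [T, Finset.mul_sum, Finset.sum_mul]
    refine Fintype.sum_equiv (Equiv.addLeft v) _ _ fun u => ?_
    rw [Equiv.coe_addLeft]
    have h1 : (D.M (v + u) 0).transpose * D.M v 0 = sgn2 (D.β v (D.π u)) • (D.M u 0).transpose := by
      have h2 : D.M v 0 * D.M u 0 = sgn2 (D.β v (D.π u)) • D.M (v + u) 0 := by
        rw [D.M_mul, ← D.M_sign]; simp
      calc (D.M (v + u) 0).transpose * D.M v 0
          = (D.M (v + u) 0).transpose * (D.M v 0 * D.M u 0) * (D.M u 0).transpose := by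
            rw [mul_assoc, mul_assoc, D.M_mul_transpose, mul_one]
        _ = _ := by rw [h2, Matrix.mul_smul, D.transpose_M_mul, Matrix.smul_mul, one_mul]
    rw [mul_assoc (M' (v + u) * X), h1, Matrix.mul_smul, ← mul_assoc, ← mul_assoc, hM', Matrix.smul_mul, Matrix.smul_mul]
  obtain ⟨a, b, hab⟩ : ∃ a b, T (Matrix.single a b 1) ≠ 0 := by
    by_contra hcon
    push Not at hcon
    have h1 : ∀ a b, ∑ u : U, M' u a a * D.M u 0 b b = 0 := by
      intro a b
      have h := congrFun (congrFun (hcon a b) a) b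
      simp only [T, Matrix.sum_apply, Matrix.zero_apply] at h
      rw [← h]
      refine Finset.sum_congr rfl fun u _ => ?_
      rw [Matrix.mul_apply, Finset.sum_eq_single b, Matrix.mul_single_apply_same, mul_one, Matrix.transpose_apply]
      · intro z _ hz; rw [Matrix.mul_single_apply_of_ne _ _ _ _ _ hz, zero_mul]
      · simp
    have h2 : ∑ u : U, (M' u).trace * (D.M u 0).trace = 0 := by
      simp only [Matrix.trace, Matrix.diag, Finset.sum_mul_sum]
      rw [Finset.sum_comm]
      refine Finset.sum_eq_zero fun a _ => ?_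
      rw [Finset.sum_comm]
      exact Finset.sum_eq_zero fun b _ => h1 a b
    rw [Finset.sum_eq_single 0] at h2
    · simp only [M', map_zero, D.trace_zero, sgn2_zero, mul_one] at h2
      exact absurd h2 (mul_ne_zero (by positivity) (by positivity))
    · intro u _ hu; rw [D.trace_ne u 0 hu, mul_zero]
    · simp
  set T₀ := T (Matrix.single a b 1)
  have hT₀ : ∀ v, M' v * T₀ = T₀ * D.M v 0 := hT _
  obtain ⟨c, hc⟩ := D.schur (X := T₀.transpose * T₀) fun v => by
    have h1 : T₀.transpose * M' v = D.M v 0 * T₀.transpose := by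
      have h := congrArg Matrix.transpose (hT₀ v)
      rw [Matrix.transpose_mul, Matrix.transpose_mul] at h
      calc T₀.transpose * M' v
          = D.M v 0 * ((D.M v 0).transpose * T₀.transpose) * M' v := by
            rw [← mul_assoc (D.M v 0), D.M_mul_transpose, one_mul]
        _ = D.M v 0 * (T₀.transpose * (M' v).transpose) * M' v := by rw [h]
        _ = _ := by rw [mul_assoc, mul_assoc, D.transpose_M_mul, mul_one]
    rw [mul_assoc, ← hT₀, ← mul_assoc, h1, mul_assoc]
  have hcpos : 0 < c := by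
    obtain ⟨i, j, hij⟩ : ∃ i j, T₀ i j ≠ 0 := by
      by_contra hcon; push Not at hcon; exact hab (Matrix.ext hcon)
    have h := congrFun (congrFun hc j) j
    simp only [Matrix.mul_apply, Matrix.transpose_apply, Matrix.smul_apply, Matrix.one_apply_eq, smul_eq_mul, mul_one] at h
    rw [← h]
    exact Finset.sum_pos' (fun k _ => mul_self_nonneg _) ⟨i, Finset.mem_univ _, mul_self_pos.mpr hij⟩
  set T₁ := (Real.sqrt c)⁻¹ • T₀ with hT₁
  have horth : T₁.transpose * T₁ = 1 := by
    rw [hT₁, Matrix.transpose_smul, Matrix.smul_mul, Matrix.mul_smul, hc, smul_smul, smul_smul,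
      ← mul_inv, Real.mul_self_sqrt hcpos.le, inv_mul_cancel₀ hcpos.ne', one_smul]
  refine ⟨T₁, mul_eq_one_comm.mp horth, fun u => ⟨δ u u, ?_⟩⟩
  have h : T₁ * D.M u 0 = M' u * T₁ := by rw [hT₁, Matrix.smul_mul, Matrix.mul_smul, hT₀]
  rw [h, mul_assoc, mul_eq_one_comm.mp horth, mul_one]

end CliffData

end Cfsg.Agent.H75
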