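import Cfsg.Agent.H75.ReeMul
import Mathlib.FieldTheory.Finite.Basic
import Mathlib.RingTheory.IntegralDomain

/-!
# The small Ree groups are generated by two elements
-/

set_option autoImplicit false
set_option linter.unusedSectionVars false

open Cfsg.Lie Cfsg.Agent.H46 Cfsg.Agent.H65.Twist
open scoped Matrix MatrixGroups

namespace Cfsg.Agent.H75

theorem subfield_exponent_lt {m d k : ℕ} (hm : 1 ≤ m) (h : d * k = 2 * m + 1) (hd : d < 2 * m + 1) :
    (3 + 3 ^ (m + 1)) * (3 ^ d - 1) < 3 ^ (2 * m + 1) - 1 := by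
  have h3 : 3 ≤ k := by
    rcases Nat.lt_or_ge k 3 with hk | hk
    · interval_cases k <;> omega
    · exact hk
  have hd3 : 3 * d ≤ 2 * m + 1 := by
    have := Nat.mul_le_mul_left d h3; rw [h] at this; omega
  rcases (by omega : m = 1 ∨ 2 ≤ m) with rfl | hm2
  · interval_cases d <;> first | omega | norm_num
  · have hlt : (3 + 3 ^ (m + 1)) * 3 ^ d ≤ 2 * 3 ^ (2 * m) := by
      have h1 : 3 + 3 ^ (m + 1) ≤ 2 * 3 ^ (m + 1) := by
        have : 3 ^ 1 ≤ 3 ^ (m + 1) := Nat.pow_le_pow_right (by norm_num) (by omega)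
        omega
      calc (3 + 3 ^ (m + 1)) * 3 ^ d ≤ 2 * 3 ^ (m + 1) * 3 ^ d := Nat.mul_le_mul_right _ h1
        _ = 2 * 3 ^ (m + 1 + d) := by ring
        _ ≤ _ := Nat.mul_le_mul_left _ (Nat.pow_le_pow_right (by norm_num) (by omega))
    have hle : (3 + 3 ^ (m + 1)) * (3 ^ d - 1) ≤ (3 + 3 ^ (m + 1)) * 3 ^ d :=
      Nat.mul_le_mul_left _ (Nat.sub_le _ _)
    have hp : 1 < 3 ^ (2 * m) := Nat.one_lt_pow (by omega) (by norm_num)
    have he : 3 ^ (2 * m + 1) = 3 * 3 ^ (2 * m) := by ring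
    omega

/-- An additive subgroup stable under multiplication by an element outside all proper subfields is everything. -/
theorem eq_top_of_mul_stable {K : Type*} [Field K] [Fintype K] [CharP K 3] {n : ℕ} (hK : Fintype.card K = 3 ^ n)
    (μ : K) (hμ0 : μ ≠ 0) (hμ : ∀ d k : ℕ, d * k = n → d < n → μ ^ (3 ^ d - 1) ≠ 1)
    (S : AddSubgroup K) {x₀ : K} (hx : x₀ ∈ S) (hx0 : x₀ ≠ 0) (hS : ∀ x ∈ S, μ * x ∈ S) : S = ⊤ := by
  classical
  let R : Subring K :=
    { carrier := {r | ∀ x ∈ S, r * x ∈ S}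
      mul_mem' := fun {a b} ha hb x hx => by rw [mul_assoc]; exact ha _ (hb x hx)
      one_mem' := fun x hx => by rwa [one_mul]
      add_mem' := fun {a b} ha hb x hx => by rw [add_mul]; exact add_mem (ha x hx) (hb x hx)
      zero_mem' := fun x _ => by rw [zero_mul]; exact zero_mem _
      neg_mem' := fun {a} ha x hx => by rw [neg_mul]; exact neg_mem (ha x hx) }
  letI : Field R := Fintype.fieldOfDomain R
  haveI : Fact (Nat.Prime 3) := ⟨Nat.prime_three⟩
  have hμR : μ ∈ R := hS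
  have hdvd : Nat.card R.toAddSubgroup ∣ 3 ^ n := by
    have := AddSubgroup.card_addSubgroup_dvd_card R.toAddSubgroup
    rwa [Nat.card_eq_fintype_card (α := K), hK] at this
  obtain ⟨d, hdn, hd⟩ := (Nat.dvd_prime_pow Nat.prime_three).1 hdvd
  have hd' : Fintype.card R = 3 ^ d := by rw [← Nat.card_eq_fintype_card]; exact hd
  by_cases hall : R = ⊤
  · rw [eq_top_iff]
    intro y _
    have : y / x₀ ∈ R := hall ▸ Subring.mem_top _
    simpa [div_mul_cancel₀ y hx0] using this x₀ hx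
  exfalso
  letI : Module R K := (R.subtype).toModule
  obtain ⟨k, hk⟩ : ∃ k : ℕ, Fintype.card K = Fintype.card R ^ k := ⟨_, Module.card_eq_pow_finrank⟩
  rw [hK, hd', ← pow_mul] at hk
  have hdk : d * k = n := (Nat.pow_right_injective (le_refl 2 |>.trans (by norm_num)) hk).symm
  have hlt : d < n := by
    refine lt_of_le_of_ne hdn fun e => hall ?_
    subst e
    apply SetLike.coe_injective
    refine Set.eq_of_subset_of_card_le (Set.subset_univ _) ?_ |>.trans (Subring.coe_top (R := K)).symm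
    rw [Fintype.card_setUniv, hK, ← hd']
    exact le_of_eq (Fintype.card_congr (Equiv.refl _))
  refine hμ d k hdk hlt ?_
  have h := FiniteField.pow_card_sub_one_eq_one (⟨μ, hμR⟩ : R) (fun e => hμ0 (congrArg Subtype.val e))
  rw [hd'] at h
  exact congrArg Subtype.val h

theorem torusVal_pow {K : Type*} [Field K] (z : Fin chevG2.rank → Kˣ) (r k : ℕ) :
    goodG2.torusVal (z ^ k) r = goodG2.torusVal z r ^ k := by
  induction k with
  | zero => simp [goodG2.torusVal_one]
  | succ k ih => rw [pow_succ, pow_succ, goodG2.torusVal_mul, ih]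

variable {K : Type*} [Field K] [Fintype K] {m : ℕ}

theorem ree_two_generated (hm : 1 ≤ m) (hK : Fintype.card K = 3 ^ (2 * m + 1)) :
    ∃ a ∈ reeW K m, ∃ b ∈ reeW K m, reeW K m ≤ Subgroup.closure {a, b} := by
  classical
  haveI := Cfsg.Agent.H65.Twist.charP_of_card Nat.prime_three hK
  haveI : Fact (Nat.Prime 3) := ⟨Nat.prime_three⟩
  obtain ⟨c, hc⟩ := IsCyclic.exists_generator (α := Kˣ)
  have horder : orderOf c = Fintype.card K - 1 := by
    rw [orderOf_eq_card_of_forall_mem_zpowers hc, Nat.card_units, Nat.card_eq_fintype_card]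
  have hne : ∀ e, 0 < e → e < Fintype.card K - 1 → (c : K) ^ e ≠ 1 := by
    intro e he he' h
    have h' : c ^ e = 1 := Units.ext (by rw [Units.val_pow_eq_pow_val, h, Units.val_one])
    have := Nat.le_of_dvd he (orderOf_dvd_of_pow_eq_one h')
    omega
  obtain ⟨z, hz7, hzf⟩ := exists_fixed_torus hK c
  set N := 3 ^ (m + 1) with hN
  have hN3 : 3 ≤ N := by
    calc 3 = 3 ^ 1 := by norm_num
      _ ≤ N := Nat.pow_le_pow_right (by norm_num) (by omega)
  have hNlt : N < Fintype.card K - 1 := by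
    rw [hK, hN]
    have h1 : 3 ^ (2 * m + 1) = 3 ^ (m + 1) * 3 ^ m := by ring
    have h2 : 3 ≤ 3 ^ m := by
      calc 3 = 3 ^ 1 := by norm_num
        _ ≤ _ := Nat.pow_le_pow_right (by norm_num) hm
    nlinarith [h1, h2, hN3, Nat.sub_add_cancel (Nat.one_le_pow (2 * m + 1) 3 (by norm_num))]
  have h6 : goodG2.torusVal z 6 = c ^ N := Units.ext (by
    rw [(torus_fixed_g2 hK z).1 hzf, hz7, iterateFrobenius_def, Units.val_pow_eq_pow_val])
  have h10 : goodG2.torusVal z 10 = c ^ (3 + N) := by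
    rw [goodG2.torusVal_add (r := 7) (s := 6) (u := 10) z (3 : ℤ) (1 : ℤ) (funext fun k => (g2_top_coord k).1),
      hz7, h6, zpow_one, show ((3 : ℤ)) = ((3 : ℕ) : ℤ) from rfl, zpow_natCast, ← pow_add]
  set h := torusE goodG2 z
  set n := reeN K
  set u1 := reeU K m 1 0 0
  have hhW : h ∈ reeW K m := fixed_diag_mem hK (goodG2.mem_diagonal.2 ⟨z, rfl⟩) hzf
  refine ⟨h, hhW, u1 * n, mul_mem (reeU_mem _ _ _) reeN_mem, ?_⟩
  set M := Subgroup.closure ({h, u1 * n} : Set ↥(chevG2.group K))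
  have hh : h ∈ M := Subgroup.subset_closure (Set.mem_insert _ _)
  have hb : u1 * n ∈ M := Subgroup.subset_closure (Set.mem_insert_of_mem _ rfl)
  -- a first element with non-zero leading coordinate
  have hnh : n * h * n⁻¹ = h⁻¹ := by
    have := reeN_conj (m := m) hK h⁻¹ (by
      rw [Subgroup.coe_inv]; exact inv_mem (goodG2.mem_diagonal.2 ⟨z, rfl⟩))
    rwa [inv_inv] at this
  obtain ⟨T', U', V', eU⟩ := exists_of_mem_U1 hK (inv_mem (reeU_mem_U1 hK (1 : K) 0 0))
  have hT' : T' = -1 := by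
    have h1 := mul_inv_cancel u1
    rw [show u1⁻¹ = reeU K m T' U' V' from eU, reeU_mul hK] at h1
    have h2 : reeU K m (0 : K) 0 0 = 1 := by
      have := reeU_add_top (K := K) (m := m) 0 0 0 0 0
      rw [add_zero] at this
      exact mul_eq_left.1 this
    have := (reeU_injective (h1.trans h2.symm)).1
    linear_combination this
  have hzi : torusE goodG2 z⁻¹ = h⁻¹ := Subtype.ext (by rw [Subgroup.coe_inv]; exact map_inv _ z)
  set lam := goodG2.torusVal z⁻¹ 6
  have hv : ∃ u v, reeU K m (1 - (lam : K)) u v ∈ M := by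
    have h1 := mul_mem (mul_mem (mul_mem hb hh) (inv_mem hb)) hh
    have e : u1 * n * h * (u1 * n)⁻¹ * h = u1 * (h⁻¹ * u1⁻¹ * (h⁻¹)⁻¹) := by
      calc u1 * n * h * (u1 * n)⁻¹ * h = u1 * (n * h * n⁻¹) * u1⁻¹ * h := by group
        _ = _ := by rw [hnh]; group
    rw [e, ← hzi, show u1⁻¹ = reeU K m T' U' V' from eU,
      torus_conj_reeU hK (by rw [hzi, map_inv, hzf]), reeU_mul hK, hT', mul_neg_one, ← sub_eq_add_neg] at h1
    exact ⟨_, _, h1⟩
  have hpowM : ∀ k : ℕ, torusE goodG2 (z ^ k) ∈ M ∧ reeTau K m (torusE goodG2 (z ^ k)) = torusE goodG2 (z ^ k) := by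
    intro k
    have e : torusE goodG2 (z ^ k) = h ^ k := Subtype.ext (by rw [Subgroup.coe_pow]; exact map_pow _ z k)
    rw [e]
    exact ⟨pow_mem hh k, by rw [map_pow, hzf]⟩
  have hconj : ∀ (k : ℕ) (t u v : K), reeU K m t u v ∈ M →
      reeU K m ((c : K) ^ (N * k) * t) ((c : K) ^ ((3 + N) * k) * u) ((goodG2.torusVal (z ^ k) 11 : K) * v) ∈ M := by
    intro k t u v ht
    obtain ⟨hk1, hk2⟩ := hpowM k
    have h1 := mul_mem (mul_mem hk1 ht) (inv_mem hk1)
    rw [torus_conj_reeU hK hk2] at h1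
    have e : ∀ r, goodG2.torusVal (z ^ k) r = goodG2.torusVal z r ^ k := fun r => torusVal_pow z r k
    rw [e, e, h6, h10, ← pow_mul, ← pow_mul, Units.val_pow_eq_pow_val, Units.val_pow_eq_pow_val] at h1
    exact h1
  have hlift : ∀ t : K, ∃ u v, reeU K m t u v ∈ M := by
    intro t
    by_cases ht : t = 0
    · refine ⟨0, 0, ?_⟩
      have h2 : reeU K m (0 : K) 0 0 = 1 := by
        have := reeU_add_top (K := K) (m := m) 0 0 0 0 0
        rw [add_zero] at this
        exact mul_eq_left.1 this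
      rw [ht, h2]; exact one_mem _
    obtain ⟨u, v, hv⟩ := hv
    have hl1 : (1 : K) - (lam : K) ≠ 0 := by
      intro e0
      have e1 : lam = 1 := Units.ext (sub_eq_zero.1 e0).symm
      have e2 := goodG2.torusVal_mul z z⁻¹ 6
      rw [mul_inv_cancel, goodG2.torusVal_one, show goodG2.torusVal z⁻¹ 6 = lam from rfl, e1, mul_one, h6] at e2
      exact hne N (by omega) hNlt (by rw [← Units.val_pow_eq_pow_val, ← e2, Units.val_one])
    obtain ⟨y, hy⟩ := Finite.surjective_of_injective (iterateFrobenius_inj K 3 (m + 1)) (t / (1 - (lam : K)))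
    have hy0 : y ≠ 0 := by
      rintro rfl
      rw [map_zero] at hy
      exact div_ne_zero ht hl1 hy.symm
    obtain ⟨k, hk⟩ := Submonoid.mem_powers_iff (Units.mk0 y hy0) c |>.1
      ((isOfFinOrder_of_finite c).mem_powers_iff_mem_zpowers.2 (hc _))
    have hk' : (c : K) ^ k = y := by rw [← Units.val_pow_eq_pow_val, hk, Units.val_mk0]
    have h1 := hconj k _ _ _ hv
    have e : (c : K) ^ (N * k) * (1 - (lam : K)) = t := by
      rw [mul_comm N k, pow_mul, hk', ← iterateFrobenius_def (p := 3), hy, div_mul_cancel₀ t hl1]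
    rw [e] at h1
    exact ⟨_, _, h1⟩
  have hzero : ∀ {t a b a' b' : K}, reeU K m t a b ∈ M → reeU K m t a' b' ∈ M →
      reeU K m 0 (a - a') (b - b') ∈ M := by
    intro t a b a' b' h1 h2
    have := mul_mem (inv_mem h2) h1
    convert this using 1
    rw [eq_inv_mul_iff_mul_eq, reeU_add_top, add_sub_cancel, add_sub_cancel]
  -- the middle layer
  let S : AddSubgroup K :=
    { carrier := {u | ∃ v, reeU K m 0 u v ∈ M}
      add_mem' := fun {a b} ⟨v, hv⟩ ⟨w, hw⟩ => ⟨v + w, by rw [← reeU_add_top]; exact mul_mem hv hw⟩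
      zero_mem' := ⟨0, by
        obtain ⟨u, v, h⟩ := hlift 0
        simpa using hzero h h⟩
      neg_mem' := fun {a} ⟨v, hv⟩ => ⟨-v, by
        obtain ⟨u, w, h⟩ := hlift 0
        have h0 := hzero h h
        rw [sub_self, sub_self] at h0
        simpa using hzero h0 hv⟩ }
  obtain ⟨a, b, hca⟩ := hlift (c : K)
  obtain ⟨a', b', h1a⟩ := hlift 1
  have hx : (c : K) ^ N - (c : K) ∈ S := by
    have h1 := mul_mem hca h1a
    have h2 := mul_mem h1a hca
    rw [reeU_mul hK] at h1 h2
    rw [add_comm (1 : K) (c : K)] at h2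
    have key : ∀ {x y w : K}, x = y → reeU K m 0 x w ∈ M → y ∈ S := fun e hm => e ▸ ⟨_, hm⟩
    refine key ?_ (hzero h1 h2)
    simp only [map_one, one_pow, one_mul, mul_one, iterateFrobenius_def, hN, ← pow_mul, ← pow_succ]
    ring
  have hx0 : (c : K) ^ N - (c : K) ≠ 0 := by
    intro e0
    have : (c : K) ^ (N - 1) = 1 := by
      refine mul_right_cancel₀ c.ne_zero ?_
      rw [← pow_succ, Nat.sub_add_cancel (by omega), one_mul]
      exact sub_eq_zero.1 e0
    exact hne (N - 1) (by omega) (by omega) this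
  have hStop : S = ⊤ := by
    refine eq_top_of_mul_stable hK ((c : K) ^ (3 + N)) (pow_ne_zero _ c.ne_zero) ?_ S hx hx0 ?_
    · intro d k hdk hd
      rw [← pow_mul]
      rcases Nat.eq_zero_or_pos d with rfl | hdpos
      · rw [zero_mul] at hdk; omega
      refine hne _ (Nat.mul_pos (by omega) ?_) (hK ▸ hN ▸ subfield_exponent_lt hm hdk hd)
      have : 3 ^ 1 ≤ 3 ^ d := Nat.pow_le_pow_right (by norm_num) hdpos
      omega
    · rintro x ⟨v, hv⟩
      have := hconj 1 _ _ _ hv
      rw [mul_zero, mul_one] at this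
      exact ⟨_, this⟩
  -- the last layer
  have hlast : ∀ v : K, reeU K m 0 0 v ∈ M := by
    intro v
    obtain ⟨w, hw⟩ : -v ∈ S := hStop ▸ AddSubgroup.mem_top _
    have h1 := mul_mem hw h1a
    have h2 := mul_mem h1a hw
    rw [reeU_mul hK] at h1 h2
    rw [zero_add] at h1
    rw [add_zero] at h2
    have h3 := hzero h1 h2
    simp only [map_zero, map_one, one_pow, mul_zero, mul_one, zero_pow three_ne_zero, zero_pow two_ne_zero,
      zero_mul, neg_zero, zero_add, sub_zero] at h3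
    convert h3 using 2 <;> ring
  have hall : ∀ t u v, reeU K m t u v ∈ M := by
    intro t u v
    obtain ⟨u0, v0, h0⟩ := hlift t
    obtain ⟨w, hw⟩ : u - u0 ∈ S := hStop ▸ AddSubgroup.mem_top _
    have h1 := mul_mem (mul_mem h0 hw) (hlast (v - v0 - w))
    rw [reeU_add_top, reeU_add_top] at h1
    convert h1 using 2 <;> ring
  have hnM : n ∈ M := by
    have := mul_mem (inv_mem (hall 1 0 0)) hb
    rwa [inv_mul_cancel_left] at this
  refine reeW_le hall fun t u v => ?_
  have hfix : reeTau K m (n⁻¹ * reeV K m t u v * n) = n⁻¹ * reeV K m t u v * n := by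
    rw [map_mul, map_mul, map_inv, show reeTau K m n = n from (reeSetup K hK).W_fixed _ reeN_mem,
      (reeTau_rules hK t u v).2]
  obtain ⟨t', u', v', e⟩ := fixed_pos hK (reeV_conj (K := K) (m := m) t u v) hfix
  have e2 : reeV K m t u v = n * reeU K m t' u' v' * n⁻¹ := by
    rw [← e]
    show _ = reeN K * _ * (reeN K)⁻¹
    group
  rw [e2]
  exact mul_mem (mul_mem hnM (hall _ _ _)) (inv_mem hnM)

/-- `²G₂(3^{2m+1})`, `m ≥ 1`, is two-generated. -/
theorem twistedG2_two_generated (hm : 1 ≤ m) (hK : Fintype.card K = 3 ^ (2 * m + 1)) :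
    ∃ a ∈ twistedG2 K (3 ^ m), ∃ b ∈ twistedG2 K (3 ^ m), twistedG2 K (3 ^ m) ≤ Subgroup.closure {a, b} := by
  haveI := Cfsg.Agent.H65.Twist.charP_of_card Nat.prime_three hK
  obtain ⟨a, ha, b, hb, hle⟩ := ree_two_generated hm hK
  refine ⟨a.1, ha, b.1, hb, fun g hg => ?_⟩
  have := Subgroup.mem_map_of_mem (chevG2.group K).subtype (hle (show ⟨g, twistedG2_le hg⟩ ∈ reeW K m from hg))
  rwa [MonoidHom.map_closure, Set.image_pair] at this

end Cfsg.Agent.H75
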