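import Cfsg.Agent.H65.Twist.ReeMain
import Cfsg.Agent.H75.ChevTwoGen.Core

/-!
# Products of Ree words: the leading and the two last coordinates
-/

set_option autoImplicit false
set_option linter.unusedSectionVars false

open Cfsg.Lie Cfsg.Agent.H46 Cfsg.Agent.H65.Twist
open scoped Matrix MatrixGroups

namespace Cfsg.Agent.H75

variable {K : Type*} [Field K] [Fintype K] [CharP K 3] {m : ℕ}

theorem ree_tables :
    chevG2.commTerms 7 8 = [(9, -2, 1, 1), (10, -3, 2, 1), (11, 3, 1, 2)] ∧
    chevG2.commTerms 7 9 = [(10, 3, 1, 1)] ∧ chevG2.commTerms 7 10 = [] ∧ chevG2.commTerms 7 11 = [] ∧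
    chevG2.commTerms 6 8 = [] ∧ chevG2.commTerms 6 9 = [] ∧ chevG2.commTerms 6 10 = [(11, 1, 1, 1)] ∧
    chevG2.commTerms 6 11 = [] ∧ (∀ r ∈ [7, 6], ∀ s ∈ [8, 9, 10, 11], r < chevG2.nroots ∧ s < chevG2.nroots ∧
      s ≠ r ∧ s ≠ chevG2.neg r) := by
  decide +kernel

theorem reePos_move {i j : Fin 6} (hi : reePosIdx i ∈ [7, 6]) (hj : reePosIdx j ∈ [8, 9, 10, 11]) (t u : K) :
    ((reePos K).X j u * (reePos K).X i t : GL chevG2.Idx K) =
      ((reePos K).X i t * (reePos K).X j u : GL chevG2.Idx K) *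
        ((chevG2.commTerms (reePosIdx i) (reePosIdx j)).map (ChevTwoGen.term goodG2 t u)).prod := by
  obtain ⟨h1, h2, h3, h4⟩ := ree_tables.2.2.2.2.2.2.2.2 _ hi _ hj
  exact ChevTwoGen.xg_comm (G := goodG2) h1 h2 h3 h4 t u

/-- The tail of a word. -/
noncomputable def four (c d e f : K) : ↥(chevG2.group K) :=
  (reePos K).X 2 c * (reePos K).X 3 d * (reePos K).X 4 e * (reePos K).X 5 f

theorem four_past_zero (c d e f a : K) :
    ∃ d', four c d e f * (reePos K).X 0 a = (reePos K).X 0 a * four c d' e f := by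
  obtain ⟨h78, h79, h710, h711, -⟩ := ree_tables
  have h3 : (3 : K) = 0 := Cfsg.Agent.H65.Twist.three_eq_zero K
  have m2 : (reePos K).X 2 c * (reePos K).X 0 a =
      (reePos K).X 0 a * ((reePos K).X 2 c * (reePos K).X 3 (-2 * -a * c)) := by
    apply Subtype.ext
    rw [Subgroup.coe_mul, Subgroup.coe_mul, Subgroup.coe_mul, reePos_move (by decide) (by decide),
      show reePosIdx 0 = 7 from rfl, show reePosIdx 2 = 8 from rfl, h78]
    simp only [ChevTwoGen.term, List.map_cons, List.map_nil, List.prod_cons, List.prod_nil, mul_one, Int.cast_neg,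
      Int.cast_ofNat, pow_one, h3, neg_zero, zero_mul, goodG2.xg_zero]
    rw [mul_assoc]
    rfl
  have mv : ∀ (j : Fin 6), j = 3 ∨ j = 4 ∨ j = 5 → ∀ u : K,
      (reePos K).X j u * (reePos K).X 0 a = (reePos K).X 0 a * (reePos K).X j u := by
    intro j hj u
    apply Subtype.ext
    rcases hj with rfl | rfl | rfl <;>
      rw [Subgroup.coe_mul, Subgroup.coe_mul, reePos_move (by decide) (by decide)] <;>
      simp [reePosIdx, h79, h710, h711, ChevTwoGen.term, h3, goodG2.xg_zero]
  refine ⟨-2 * (-a * c) + d, ?_⟩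
  simp only [four, mul_assoc]
  rw [mv 5 (by simp), ← mul_assoc ((reePos K).X 4 e), mv 4 (by simp), mul_assoc,
    ← mul_assoc ((reePos K).X 3 d), mv 3 (by simp), mul_assoc, ← mul_assoc ((reePos K).X 2 c), m2]
  simp only [mul_assoc]
  rw [← mul_assoc ((reePos K).X 3 _), (reePos K).add]

theorem four_past_one (c d e f b : K) :
    four c d e f * (reePos K).X 1 b = (reePos K).X 1 b * four c d e (f - e * b) := by
  obtain ⟨-, -, -, -, h68, h69, h610, h611, -⟩ := ree_tables
  have mv : ∀ (j : Fin 6), j = 2 ∨ j = 3 ∨ j = 5 → ∀ u : K,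
      (reePos K).X j u * (reePos K).X 1 b = (reePos K).X 1 b * (reePos K).X j u := by
    intro j hj u
    apply Subtype.ext
    rcases hj with rfl | rfl | rfl <;>
      rw [Subgroup.coe_mul, Subgroup.coe_mul, reePos_move (by decide) (by decide)] <;>
      simp [reePosIdx, h68, h69, h611]
  have m4 : (reePos K).X 4 e * (reePos K).X 1 b =
      (reePos K).X 1 b * ((reePos K).X 4 e * (reePos K).X 5 (-(e * b))) := by
    apply Subtype.ext
    rw [Subgroup.coe_mul, Subgroup.coe_mul, Subgroup.coe_mul, reePos_move (by decide) (by decide),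
      show reePosIdx 1 = 6 from rfl, show reePosIdx 4 = 10 from rfl, h610]
    simp only [ChevTwoGen.term, List.map_cons, List.map_nil, List.prod_cons, List.prod_nil, mul_one, Int.cast_one,
      pow_one, one_mul, neg_mul, mul_comm b e]
    rw [mul_assoc]
    rfl
  simp only [four, mul_assoc]
  rw [mv 5 (by simp), ← mul_assoc ((reePos K).X 4 e), m4]
  simp only [mul_assoc]
  rw [(reePos K).add 5, ← mul_assoc ((reePos K).X 3 d), mv 3 (by simp), mul_assoc,
    ← mul_assoc ((reePos K).X 2 c), mv 2 (by simp), mul_assoc, neg_add_eq_sub]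

theorem word_eq_four (a b c d e f : K) :
    (reePos K).word a b c d e f = (reePos K).X 0 a * ((reePos K).X 1 b * four c d e f) := by
  simp only [ReeBlock.word, four, mul_assoc]

theorem word_mul (a b c d e f a' b' c' d' e' f' : K) : ∃ C D : K,
    (reePos K).word a b c d e f * (reePos K).word a' b' c' d' e' f' =
      (reePos K).word (a + a') (b + b') C D (-(a' ^ 3 * b) + e + e')
        (-(a' ^ 3 * b ^ 2) + f - (-(a' ^ 3 * b) + e) * b' + f') := by
  obtain ⟨d1, h1⟩ := four_past_zero c d e f a'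
  refine ⟨a' * b + c + c', a' ^ 2 * b + d1 + d', ?_⟩
  rw [word_eq_four, word_eq_four, word_eq_four]
  calc (reePos K).X 0 a * ((reePos K).X 1 b * four c d e f) *
        ((reePos K).X 0 a' * ((reePos K).X 1 b' * four c' d' e' f'))
      = (reePos K).X 0 a * ((reePos K).X 1 b * (four c d e f * (reePos K).X 0 a')) *
        ((reePos K).X 1 b' * four c' d' e' f') := by simp only [mul_assoc]
    _ = (reePos K).X 0 a * ((reePos K).X 1 b * (reePos K).X 0 a') * four c d1 e f *
        ((reePos K).X 1 b' * four c' d' e' f') := by rw [h1]; simp only [mul_assoc]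
    _ = (reePos K).X 0 a * (reePos K).X 0 a' * (reePos K).X 1 b *
        ((four (a' * b) (a' ^ 2 * b) (-(a' ^ 3 * b)) (-(a' ^ 3 * b ^ 2)) * four c d1 e f) *
          (reePos K).X 1 b') * four c' d' e' f' := by
        rw [(reePos K).swap]; simp only [four, mul_assoc]
    _ = (reePos K).X 0 (a + a') * ((reePos K).X 1 b * (reePos K).X 1 b') *
        (four (a' * b + c) (a' ^ 2 * b + d1) (-(a' ^ 3 * b) + e)
          (-(a' ^ 3 * b ^ 2) + f - (-(a' ^ 3 * b) + e) * b') * four c' d' e' f') := by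
        rw [(reePos K).add, show four (a' * b) (a' ^ 2 * b) (-(a' ^ 3 * b)) (-(a' ^ 3 * b ^ 2)) * four c d1 e f =
          four (a' * b + c) (a' ^ 2 * b + d1) (-(a' ^ 3 * b) + e) (-(a' ^ 3 * b ^ 2) + f) from
            (reePos K).four_mul .., four_past_one]
        simp only [mul_assoc]
    _ = _ := by
        rw [(reePos K).add, show four (a' * b + c) (a' ^ 2 * b + d1) (-(a' ^ 3 * b) + e)
            (-(a' ^ 3 * b ^ 2) + f - (-(a' ^ 3 * b) + e) * b') * four c' d' e' f' = _ from
            (reePos K).four_mul .., mul_assoc]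
        rfl

theorem word_coords {a b c d e f a' b' c' d' e' f' : K}
    (h : (reePos K).word a b c d e f = (reePos K).word a' b' c' d' e' f') : b = b' ∧ e = e' ∧ f = f' := by
  have e2 := congrArg (fun g : ↥(chevG2.group K) => (g : GL chevG2.Idx K)) h
  simp only [word_ord] at e2
  have hco := goodG2.ordProd_injective _ le_rfl _ _ e2
  have hn : chevG2.nroots = 12 := rfl
  have h6 := hco 6 (by omega) (by omega)
  have h7 := hco 7 (by omega) (by omega)
  have h10 := hco 10 (by omega) (by omega)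
  have h11 := hco 11 (by omega) (by omega)
  simp only [List.getD_cons_zero, List.getD_cons_succ, Nat.sub_self, show 7 - 6 = 1 from rfl,
    show 10 - 6 = 4 from rfl, show 11 - 6 = 5 from rfl] at h6 h7 h10 h11
  subst h6 h7
  exact ⟨rfl, add_right_cancel h10, add_right_cancel h11⟩

/-- The product of two Ree words. -/
theorem reeU_mul (hK : Fintype.card K = 3 ^ (2 * m + 1)) (t u v t' u' v' : K) :
    reeU K m t u v * reeU K m t' u' v' = reeU K m (t + t')
      (-(iterateFrobenius K 3 m t' ^ 3 * t) + u + u')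
      (-(iterateFrobenius K 3 m t' ^ 3 * t ^ 2) + v - (-(iterateFrobenius K 3 m t' ^ 3 * t) + u) * t' + v') := by
  obtain ⟨T, U, V, e⟩ := exists_of_mem_U1 hK (mul_mem (reeU_mem_U1 hK t u v) (reeU_mem_U1 hK t' u' v'))
  obtain ⟨C, D, h⟩ := word_mul (iterateFrobenius K 3 m t) t (iterateFrobenius K 3 m t * t + iterateFrobenius K 3 m u)
    (iterateFrobenius K 3 m t ^ 2 * t + iterateFrobenius K 3 m v) u v (iterateFrobenius K 3 m t') t'
    (iterateFrobenius K 3 m t' * t' + iterateFrobenius K 3 m u')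
    (iterateFrobenius K 3 m t' ^ 2 * t' + iterateFrobenius K 3 m v') u' v'
  rw [e]
  obtain ⟨h1, h2, h3⟩ := word_coords (e.symm.trans h)
  rw [h1, h2, h3]

end Cfsg.Agent.H75
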